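/-
The centralizer of the product of two commuting transpositions in the commutator subgroup of the explicit `Fi₂₄`.
-/
import Mathlib
import Cfsg.Agent.Lib.Fischer.M24.O24.Final
import Cfsg.Agent.Lib.Fischer.M23.ExplicitFacts
import Cfsg.Agent.Lib.Fischer.M23.ExplicitRows
import Cfsg.Agent.Lib.Components.FStarFactor
import Cfsg.Agent.Lib.Components.Transport
import Cfsg.Agent.Lib.Fischer.M24.E.Iso

set_option autoImplicit false
set_option maxRecDepth 100000

namespace Cfsg.Agent.Lib.Fischer.M24.O24.Pair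

open Cfsg Cfsg.Agent.Lib.Compute.BitNet Cfsg.Agent.Lib.Fischer.M24.Net Cfsg.Agent.Lib.Fischer.M24.Explicit
open Cfsg.Agent.Lib.Fischer.M24.A37 Cfsg.Agent.Lib.Fischer.M24.InvolAll Cfsg.Agent.Lib.Fischer.M24.W2
open Cfsg.Agent.Lib.Fischer.Basic Cfsg.Agent.Lib.Fischer.Local
open Cfsg.Agent.Lib.Fischer.M22.Explicit (PM simple0 center0 card0)
open Cfsg.Agent.Lib.Compute.OutCert
open Cfsg.Agent.Lib.Fischer.M24.O24
open scoped commutatorElement

/-! ### An abstract description of the generalized Fitting subgroup -/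

section Abstract

variable {X : Type*} [Group X] [Finite X]

/-- A normal quasisimple subgroup of index two which contains its centralizer is the generalized Fitting subgroup. -/
theorem fstar_of_index_two (K : Subgroup X) (hn : K.Normal) (hq : IsQuasisimple K)
    (hcent : ∀ v : X, (∀ u ∈ K, Commute v u) → v ∈ K) (hi : K.index = 2) :
    generalizedFittingSubgroup X = K := by
  have hcomp : IsComponent K := ⟨hn.isSubnormal, hq⟩
  have hcl : commutator X ≤ K := by
    haveI := hn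
    rw [commutator_def]
    have hab : ∀ a b : X, ⁅a, b⁆ ∈ K := by
      intro a b
      have h1 : ∀ x y : X, x * y ∈ K ↔ (x ∈ K ↔ y ∈ K) := fun x y => Subgroup.mul_mem_iff_of_index_two hi
      have h2 : ⁅a, b⁆ = (a * b) * (a⁻¹ * b⁻¹) := by
        rw [commutatorElement_def]
        group
      rw [h2, h1, h1, h1, inv_mem_iff, inv_mem_iff]
    rw [Subgroup.commutator_le]
    exact fun a _ b _ => hab a b
  apply le_antisymm
  · apply sup_le
    · apply sSup_le
      rintro L ⟨-, hL⟩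
      have hp : ⁅L, L⁆ = L := by
        have h := hL.1
        rw [Subgroup.isPerfect_iff] at h
        exact h
      rw [← hp]
      refine le_trans (Subgroup.commutator_mono le_top le_top) ?_
      exact hcl
    · intro w hw
      apply hcent
      intro u hu
      have hu' : u ∈ layer X := Cfsg.Agent.Lib.Components.Layer.le_layer hcomp hu
      exact (Cfsg.Agent.Lib.Components.FStarFactor.layer_fitting_commute hu' hw).symm
  · exact le_trans (Cfsg.Agent.Lib.Components.Layer.le_layer hcomp) le_sup_left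

end Abstract

/-! ### The explicit groups -/

theorem mul_z2_not_F2 {x : G2} (hx : x ∈ F2) : x * z2 ∉ F2 := fun k =>
  z2_not_F2 ((Subgroup.mul_mem_cancel_left _ hx).1 k)

/-- The map to the centralizer in the explicit `Fi₂₃`. -/
noncomputable def nuHom : C2F →* M23.Explicit.H1 :=
  MonoidHom.mk' (fun x => ⟨π2 x.1, π2_H1 (C2F_C2 x.2)⟩)
    (fun a b => Subtype.ext (π2_mul (C2_H2 (C2F_C2 a.2)) (C2_H2 (C2F_C2 b.2))))

theorem nuHom_inj : Function.Injective nuHom := by
  intro a b h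
  have h1 : π2 a.1 = π2 b.1 := congrArg Subtype.val h
  rcases (π2_eq_iff (C2_H2 (C2F_C2 a.2)) (C2_H2 (C2F_C2 b.2))).1 h1 with e | e
  · exact Subtype.ext e
  · exact absurd (e ▸ C2F_F2 a.2) (mul_z2_not_F2 (C2F_F2 b.2))

theorem nuHom_surj : Function.Surjective nuHom := by
  rintro ⟨y, hy⟩
  obtain ⟨h, hh, rfl⟩ := π2_surj y
  have hC : h ∈ C2 := C2_of_H1 hh hy
  by_cases hF : h ∈ F2
  · exact ⟨⟨h, mem_C2F.2 ⟨hC, hF⟩⟩, rfl⟩
  · have hn : h * z2 ∈ F2 := (Subgroup.mul_mem_iff_of_index_two F2_index).2 (iff_of_false hF z2_not_F2)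
    refine ⟨⟨h * z2, mem_C2F.2 ⟨mul_mem hC z2_C2, hn⟩⟩, Subtype.ext ?_⟩
    show π2 (h * z2) = π2 h
    rw [π2_mul hh z2_H2, π2_z, mul_one]

/-- The isomorphism of the even part with the centralizer in the explicit `Fi₂₃`. -/
noncomputable def nuEq : C2F ≃* M23.Explicit.H1 := MulEquiv.ofBijective nuHom ⟨nuHom_inj, nuHom_surj⟩

theorem quasi_C2F : IsQuasisimple C2F :=
  Cfsg.Agent.Lib.Fischer.M22.Explicit.quasi_congr nuEq.symm M23.Explicit.quasi_H1

/-- The subgroup `C2F` in the centralizer of `τ`. -/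
noncomputable abbrev KX : Subgroup (cF tau) := C2F.subgroupOf (cF tau)

theorem mem_KX {x : cF tau} : x ∈ KX ↔ x.1 ∈ C2F := Subgroup.mem_subgroupOf

theorem KX_normal : KX.Normal := by
  refine ⟨fun n hn g => ?_⟩
  rw [mem_KX] at hn ⊢
  exact cj_C2F g.2 _ hn

theorem KX_index : KX.index = 2 := by
  have h := Subgroup.card_mul_index KX
  have h1 : Nat.card KX = Nat.card C2F := Nat.card_congr (Subgroup.subgroupOfEquivOfLe C2F_le).toEquiv
  rw [h1, card_Ct] at h
  have hpos : 0 < Nat.card C2F := Nat.card_pos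
  nlinarith

theorem KX_quasi : IsQuasisimple KX :=
  Cfsg.Agent.Lib.Fischer.M22.Explicit.quasi_congr (Subgroup.subgroupOfEquivOfLe C2F_le).symm quasi_C2F

theorem KX_cent (v : cF tau) (h : ∀ u ∈ KX, Commute v u) : v ∈ KX := by
  have hv : ∀ u ∈ C2F, Commute v.1 u := by
    intro u hu
    have := h ⟨u, C2F_le hu⟩ (mem_KX.2 hu)
    exact congrArg Subtype.val this
  rw [mem_KX]
  rcases cent_C2F (mem_cF.1 v.2).2 hv with e | e
  · rw [e]
    exact one_mem _
  · rw [e]
    exact tau_C2F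

theorem fstar_cF : generalizedFittingSubgroup (cF tau) = KX :=
  fstar_of_index_two KX KX_normal KX_quasi KX_cent KX_index

/-! ### The map to the automorphism group of `Fi₂₂` -/

/-- The automorphism of `Fi₂₂` induced by an element of the centralizer of `τ`. -/
noncomputable def psiOf (c : cF tau) : MulAut G0 := Classical.choose (exists_psi_cj c.2)

theorem psiOf_spec (c : cF tau) : ∀ u ∈ C2F, psiOf c (pi u) = pi (c.1 * u * c.1⁻¹) :=
  Classical.choose_spec (exists_psi_cj c.2)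

theorem psi_ext {ψ ψ' : MulAut G0} (h : ∀ u ∈ C2F, ψ (pi u) = ψ' (pi u)) : ψ = ψ' := by
  ext x
  obtain ⟨k, hk, rfl⟩ := piF_surj x
  exact h k hk

/-- The action on `Fi₂₂`. -/
noncomputable def Phi : cF tau →* MulAut G0 :=
  MonoidHom.mk' psiOf (fun a b => psi_ext fun u hu => by
    rw [psiOf_spec _ u hu, MulAut.mul_apply, psiOf_spec b u hu, psiOf_spec a _ (cj_C2F b.2 u hu)]
    congr 1)

theorem Phi_spec (c : cF tau) : ∀ u ∈ C2F, Phi c (pi u) = pi (c.1 * u * c.1⁻¹) := psiOf_spec c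

theorem Phi_ker (c : cF tau) : Phi c = 1 ↔ c.1 = 1 ∨ c.1 = tau := by
  constructor
  · intro h
    have h1 : ∀ u ∈ C2F, pi (conjF c.1 id u) = pi u := by
      intro u hu
      have := Phi_spec c u hu
      rw [h] at this
      rw [cj_apply]
      exact this.symm
    have h2 := fix_C2F (pH_cj c.1) (cF_conj_tau c.2) h1
    apply cent_C2F (mem_cF.1 c.2).2
    intro u hu
    have h3 := h2 u hu
    rw [cj_apply] at h3
    rw [Commute, SemiconjBy]
    calc c.1 * u = c.1 * u * c.1⁻¹ * c.1 := by group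
      _ = u * c.1 := by rw [h3]
  · intro h
    apply psi_ext
    intro u hu
    rw [Phi_spec c u hu]
    rcases h with e | e
    · rw [e]
      simp
    · rw [e]
      have h1 : tau * u * tau⁻¹ = u := by
        rw [(comm_C2_tau (C2F_C2 hu)).symm.eq, mul_inv_cancel_right]
      rw [h1]
      rfl

theorem Phi_C2F {k : G2} (hk : k ∈ C2F) : Phi ⟨k, C2F_le hk⟩ = MulAut.conj (pi k) := by
  apply psi_ext
  intro u hu
  rw [Phi_spec _ u hu, MulAut.conj_apply]
  exact pi_conj (C2F_C2 hk) (C2F_C2 hu)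

theorem Phi_surj : Function.Surjective Phi := by
  have hinn : Inn G0 ≤ Phi.range := by
    rintro _ ⟨g, rfl⟩
    obtain ⟨k, hk, rfl⟩ := piF_surj g
    exact ⟨⟨k, C2F_le hk⟩, Phi_C2F hk⟩
  have hs : Phi ⟨sS, sS_cF⟩ ∉ Inn G0 := sigma_not_inn (Phi_spec ⟨sS, sS_cF⟩)
  intro ψ
  have hr : ψ ∈ Phi.range := by
    by_cases h : ψ ∈ Inn G0
    · exact hinn h
    · have h1 : ψ * Phi ⟨sS, sS_cF⟩ ∈ Inn G0 :=
        (Subgroup.mul_mem_iff_of_index_two card_out_G0).2 (iff_of_false h hs)
      have h2 : ψ = (ψ * Phi ⟨sS, sS_cF⟩) * (Phi ⟨sS, sS_cF⟩)⁻¹ := by group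
      rw [h2]
      exact mul_mem (hinn h1) (inv_mem ⟨_, rfl⟩)
  exact hr

/-! ### The normal form of a pair of transpositions -/

theorem d2_Dlt : d2 ∈ Dlt D2 z2 := mem_Dlt_of2 d2_D2 comm_z2_d2 z2_ne_d2.symm

theorem pair_nf {a b : G2} (ha : a ∈ D2) (hb : b ∈ D2) (hc : Commute a b) (hne : a ≠ b) :
    ∃ g : G2, g * a * g⁻¹ = z2 ∧ g * b * g⁻¹ = d2 := by
  obtain ⟨g, hg⟩ := conj_trans2 a ha z2 z2_mem
  have hx : g * b * g⁻¹ ∈ Dlt D2 z2 :=
    mem_Dlt_of2 (D2_conj g b hb) (by rw [← hg]; exact conj_comm2 hc) (by rw [← hg]; exact (conj_ne2 hne).symm)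
  obtain ⟨y, hy⟩ := M23.Explicit.conj_trans1 _ (π2_mem_D1 hx) _ (π2_mem_D1 d2_Dlt)
  obtain ⟨h, hh, rfl⟩ := π2_surj y
  have hz : h * z2 * h⁻¹ = z2 := by
    have := (comm_z2_iff h).2 hh
    rw [this.eq, mul_inv_cancel_right]
  refine ⟨h * g, ?_, ?_⟩
  · have e1 : h * g * a * (h * g)⁻¹ = h * (g * a * g⁻¹) * h⁻¹ := by group
    rw [e1, hg, hz]
  · have e1 : h * g * b * (h * g)⁻¹ = h * (g * b * g⁻¹) * h⁻¹ := by group
    rw [e1]
    apply π2_inj (conj_mem_Dlt hh hx) d2_Dlt
    have hxH : g * b * g⁻¹ ∈ H2 := by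
      rw [← comm_z2_iff]
      exact hx.2.2.symm
    rw [π2_conj hh hxH, hy]

/-! ### The transport -/

section Main

universe u

variable {G : Type u} [Group G]

theorem mem_L_iff (f : G ≃* G2) (a : G) : a ∈ commutator G ↔ f a ∈ F2 := by
  have h : (commutator G).map f.toMonoidHom = F2 := by
    rw [← commutator2, commutator_def, commutator_def, Subgroup.map_commutator]
    have : (⊤ : Subgroup G).map f.toMonoidHom = ⊤ := Subgroup.map_top_of_surjective _ f.surjective
    rw [this]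
  rw [← h, Subgroup.mem_map_equiv, MulEquiv.symm_apply_apply]

theorem comm_f (f : G ≃* G2) {a b : G} {b' : G2} (h : f b = b') : Commute a b ↔ Commute (f a) b' := by
  subst h
  constructor
  · exact fun k => k.map f
  · intro k
    have : f (a * b) = f (b * a) := by
      rw [map_mul, map_mul]
      exact k
    exact f.injective this

/-- The main theorem for the explicit normal form. -/
theorem main_of_iso {f : G ≃* G2} {d₁ d₂ : G} (f1 : f d₁ = z2) (f2 : f d₂ = d2) (L : Subgroup G) (hL : L = commutator G)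
    (K CL : Subgroup G) (hK : K = L ⊓ Subgroup.centralizer ({d₁, d₂} : Set G))
    (hCL : CL = L ⊓ Subgroup.centralizer ({d₁ * d₂} : Set G)) [hn : ((Subgroup.zpowers (d₁ * d₂)).subgroupOf CL).Normal] :
    IsQuasisimple ↥K ∧ K = (generalizedFittingSubgroup ↥CL).map CL.subtype ∧ K ≤ CL ∧ (K.subgroupOf CL).index = 2 ∧
      d₁ * d₂ ∈ K ∧ Nonempty (↥CL ⧸ (Subgroup.zpowers (d₁ * d₂)).subgroupOf CL ≃* MulAut G0) := by
  subst hL
  have fj : f (d₁ * d₂) = tau := by rw [map_mul, f1, f2]; rfl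
  have iK : ∀ a, a ∈ K ↔ f a ∈ C2F := by
    intro a
    subst hK
    rw [Subgroup.mem_inf, mem_C2F, mem_L_iff f, mem_C2, ← comm_z2_iff, ← comm_t_iff', Subgroup.mem_centralizer_iff]
    have h1 := comm_f f (a := a) f1
    have h2 := comm_f f (a := a) f2
    constructor
    · rintro ⟨ha, hb⟩
      refine ⟨⟨h1.1 ?_, h2.1 ?_⟩, ha⟩
      · exact (hb d₁ (by simp)).symm
      · exact (hb d₂ (by simp)).symm
    · rintro ⟨⟨ha, hb⟩, hc⟩
      refine ⟨hc, ?_⟩
      rintro x (rfl | rfl)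
      · exact (h1.2 ha).symm
      · exact (h2.2 hb).symm
  have iC : ∀ a, a ∈ CL ↔ f a ∈ cF tau := by
    intro a
    subst hCL
    rw [Subgroup.mem_inf, mem_cF, mem_L_iff f, Subgroup.mem_centralizer_singleton_iff, and_comm]
    apply and_congr_left'
    exact comm_f f fj
  have hle : K ≤ CL := by
    intro a ha
    exact (iC a).2 (C2F_le ((iK a).1 ha))
  let eK : K ≃* C2F := Cfsg.Agent.Lib.Fischer.M23.Explicit.resE f K C2F iK
  let eC : CL ≃* cF tau := Cfsg.Agent.Lib.Fischer.M23.Explicit.resE f CL (cF tau) iC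
  refine ⟨Cfsg.Agent.Lib.Fischer.M22.Explicit.quasi_congr eK.symm quasi_C2F, ?_, hle, ?_, (iK _).2 (fj ▸ tau_C2F), ?_⟩
  · have h1 := Cfsg.Agent.Lib.Components.Transport.generalizedFittingSubgroup_map_equiv eC
    rw [fstar_cF] at h1
    ext a
    constructor
    · intro ha
      have h2 : eC ⟨a, hle ha⟩ ∈ KX := mem_KX.2 ((iK a).1 ha)
      rw [← h1] at h2
      obtain ⟨c, hc, hc2⟩ := h2
      have h3 : c = ⟨a, hle ha⟩ := eC.injective hc2
      rw [h3] at hc
      exact ⟨_, hc, rfl⟩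
    · rintro ⟨⟨c, hc⟩, hc2, rfl⟩
      have h2 : eC ⟨c, hc⟩ ∈ KX := by
        rw [← h1]
        exact ⟨_, hc2, rfl⟩
      exact (iK c).2 (mem_KX.1 h2)
  · have h := Subgroup.card_mul_index (K.subgroupOf CL)
    have h1 : Nat.card (K.subgroupOf CL) = Nat.card C2F :=
      (Nat.card_congr (Subgroup.subgroupOfEquivOfLe hle).toEquiv).trans (Nat.card_congr eK.toEquiv)
    have h2 : Nat.card CL = 2 * Nat.card C2F := (Nat.card_congr eC.toEquiv).trans card_Ct
    rw [h1, h2] at h
    have hpos : 0 < Nat.card C2F := Nat.card_pos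
    nlinarith
  · let Ψ : CL →* MulAut G0 := Phi.comp eC.toMonoidHom
    have hs : Function.Surjective Ψ := Phi_surj.comp eC.surjective
    have hk : (Subgroup.zpowers (d₁ * d₂)).subgroupOf CL = Ψ.ker := by
      ext c
      rw [Subgroup.mem_subgroupOf, MonoidHom.mem_ker]
      have e1 : Ψ c = Phi (eC c) := rfl
      rw [e1, Phi_ker]
      have e2 : ((eC c : cF tau) : G2) = f c.1 := rfl
      rw [e2]
      have hj2 : (d₁ * d₂) ^ 2 = 1 := by
        apply f.injective
        rw [map_pow, fj, pow_two, tau_sq, map_one]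
      have hz : ∀ y : G, y ∈ Subgroup.zpowers (d₁ * d₂) ↔ y = 1 ∨ y = d₁ * d₂ := by
        intro y
        constructor
        · rintro ⟨i, rfl⟩
          rcases Int.even_or_odd' i with ⟨m, rfl | rfl⟩
          · left
            show (d₁ * d₂) ^ (2 * m) = 1
            rw [zpow_mul, zpow_ofNat, hj2, one_zpow]
          · right
            show (d₁ * d₂) ^ (2 * m + 1) = d₁ * d₂
            rw [zpow_add_one, zpow_mul, zpow_ofNat, hj2, one_zpow, one_mul]
        · rintro (rfl | rfl)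
          · exact one_mem _
          · exact Subgroup.mem_zpowers _
      rw [hz]
      apply or_congr
      · rw [map_eq_one_iff f f.injective]
      · rw [← fj]
        exact f.injective.eq_iff.symm
    exact ⟨(QuotientGroup.quotientMulEquivOfEq hk).trans (QuotientGroup.quotientKerEquivOfSurjective Ψ hs)⟩

end Main

/-- **The centralizer of the product of two commuting transpositions.** -/
theorem main {G : Type*} [Group G] [Finite G] {D : Set G} (hD : IsThreeTranspositionGroup D) (hprim : IsPrimitiveUnderConj D)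
    (h24 : IsOfTypeM24 G D) (L : Subgroup G) (hL : L = commutator G) (d₁ d₂ : G) (h₁ : d₁ ∈ D) (h₂ : d₂ ∈ D)
    (hne : d₁ ≠ d₂) (hc : Commute d₁ d₂) (K CL : Subgroup G) (hK : K = L ⊓ Subgroup.centralizer ({d₁, d₂} : Set G))
    (hCL : CL = L ⊓ Subgroup.centralizer ({d₁ * d₂} : Set G)) [hn : ((Subgroup.zpowers (d₁ * d₂)).subgroupOf CL).Normal] :
    IsQuasisimple ↥K ∧ K = (generalizedFittingSubgroup ↥CL).map CL.subtype ∧ K ≤ CL ∧ (K.subgroupOf CL).index = 2 ∧
      d₁ * d₂ ∈ K ∧ Nonempty (↥CL ⧸ (Subgroup.zpowers (d₁ * d₂)).subgroupOf CL ≃* MulAut G0) := by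
  obtain ⟨e, he⟩ := exists_iso_G2 hD hprim h24
  obtain ⟨g, hg1, hg2⟩ := pair_nf ((he _).1 h₁) ((he _).1 h₂) (hc.map e) (fun k => hne (e.injective k))
  exact main_of_iso (f := e.trans (MulAut.conj g)) hg1 hg2 L hL K CL hK hCL

end Cfsg.Agent.Lib.Fischer.M24.O24.Pair
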